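import Cfsg.Agent.Lib.Invol.CoxeterA

set_option autoImplicit false

namespace Cfsg.Agent.Lib.AltHom

open Equiv

variable {G : Type*} [Group G]

/-- induced action of a Coxeter generator -/
def sg (u : G) : Perm (G × Bool) :=
  Function.Involutive.toPerm (fun p => (cond p.2 u u⁻¹ * p.1, !p.2)) (by
    rintro ⟨g, _ | _⟩ <;> simp)

theorem sg_apply (u g : G) (b : Bool) : sg u (g, b) = (cond b u u⁻¹ * g, !b) := rfl

/-- Universal property of the alternating group (Moore's presentation, in the form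
`s i * s j ↦ u i * (u j)⁻¹`). -/
theorem exists_hom_alt (u : ℕ → G) (n : ℕ)
    (hc : ∀ i j, i + 1 < j → j < n → (u i)⁻¹ * u j = (u j)⁻¹ * u i ∧ u i * (u j)⁻¹ = u j * (u i)⁻¹)
    (hb : ∀ i, i + 1 < n → u i * (u (i + 1))⁻¹ * u i = u (i + 1) * (u i)⁻¹ * u (i + 1)) :
    ∃ φ : alternatingGroup (Fin (n + 1)) →* G, ∀ (i j : Fin n) (σ : alternatingGroup (Fin (n + 1))),
      (σ : Perm (Fin (n + 1))) = swap i.castSucc i.succ * swap j.castSucc j.succ →
        φ σ = u i * (u j)⁻¹ := by
  have hrel : Cfsg.Agent.Lib.Invol.CoxRel (fun i => sg (u i)) n := by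
    refine ⟨fun i _ => ?_, fun i j h1 h2 => ?_, fun i hi => ?_⟩
    · refine Equiv.ext ?_
      rintro ⟨g, _ | _⟩ <;> simp [sg_apply]
    · refine Equiv.ext ?_
      rintro ⟨g, _ | _⟩
      · simp only [Perm.mul_apply, sg_apply, cond_true, cond_false, Bool.not_true, Bool.not_false,
          ← mul_assoc, (hc i j h1 h2).2]
      · simp only [Perm.mul_apply, sg_apply, cond_true, cond_false, Bool.not_true, Bool.not_false,
          ← mul_assoc, (hc i j h1 h2).1]
    · refine Equiv.ext ?_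
      rintro ⟨g, _ | _⟩
      · simp only [Perm.mul_apply, sg_apply, cond_true, cond_false, Bool.not_true, Bool.not_false,
          ← mul_assoc]
        have := congrArg (·⁻¹) (hb i hi)
        simp only [mul_inv_rev, inv_inv, ← mul_assoc] at this
        rw [this]
      · simp only [Perm.mul_apply, sg_apply, cond_true, cond_false, Bool.not_true, Bool.not_false,
          ← mul_assoc, hb i hi]
  obtain ⟨Φ, hΦ⟩ := Cfsg.Agent.Lib.Invol.exists_hom_perm_of_coxRel hrel
  have key : ∀ σ : Perm (Fin (n + 1)), ∀ b : Bool, ∃ x : G, ∀ g,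
      Φ σ (g, b) = (x * g, if Perm.sign σ = 1 then b else !b) := by
    intro σ
    have : σ ∈ Submonoid.closure (Set.range fun i : Fin n => swap i.castSucc i.succ) := by
      rw [Perm.mclosure_swap_castSucc_succ]; trivial
    induction this using Submonoid.closure_induction with
    | one => exact fun b => ⟨1, fun g => by simp⟩
    | mem x hx =>
      obtain ⟨i, rfl⟩ := hx
      refine fun b => ⟨cond b (u i) (u i)⁻¹, fun g => ?_⟩
      rw [hΦ, sg_apply, Perm.sign_swap (Fin.castSucc_lt_succ (i := i)).ne, if_neg (by decide)]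
    | mul x y _ _ hx hy =>
      intro b
      obtain ⟨y', hy'⟩ := hy b
      obtain ⟨x', hx'⟩ := hx (if Perm.sign y = 1 then b else !b)
      refine ⟨x' * y', fun g => ?_⟩
      rw [map_mul, Perm.mul_apply, hy', hx', mul_assoc, map_mul]
      rcases Int.units_eq_one_or (Perm.sign x) with h1 | h1 <;>
        rcases Int.units_eq_one_or (Perm.sign y) with h2 | h2 <;> simp [h1, h2]
  have key2 : ∀ σ : alternatingGroup (Fin (n + 1)), ∀ g,
      Φ σ (g, false) = ((Φ σ (1, false)).1 * g, false) := by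
    intro σ g
    obtain ⟨x, hx⟩ := key σ false
    rw [hx, hx, if_pos (Perm.mem_alternatingGroup.1 σ.2), mul_one]
  refine ⟨MonoidHom.mk' (fun σ => (Φ σ (1, false)).1) fun σ τ => ?_, fun i j σ hσ => ?_⟩
  · rw [Subgroup.coe_mul, map_mul, Perm.mul_apply, key2 τ, key2 σ, mul_one]
  · change (Φ σ (1, false)).1 = _
    rw [hσ, map_mul, hΦ, hΦ, Perm.mul_apply]
    simp [sg_apply]

/-- An injective version for simple alternating groups. -/
theorem exists_inj_alt (u : ℕ → G) (n : ℕ) (hn : 4 ≤ n)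
    (hc : ∀ i j, i + 1 < j → j < n → (u i)⁻¹ * u j = (u j)⁻¹ * u i ∧ u i * (u j)⁻¹ = u j * (u i)⁻¹)
    (hb : ∀ i, i + 1 < n → u i * (u (i + 1))⁻¹ * u i = u (i + 1) * (u i)⁻¹ * u (i + 1))
    (h01 : u 0 ≠ u 1) :
    ∃ φ : alternatingGroup (Fin (n + 1)) →* G, Function.Injective φ ∧
      ∀ (i j : Fin n) (σ : alternatingGroup (Fin (n + 1))),
      (σ : Perm (Fin (n + 1))) = swap i.castSucc i.succ * swap j.castSucc j.succ →
        φ σ = u i * (u j)⁻¹ := by
  obtain ⟨φ, hφ⟩ := exists_hom_alt u n hc hb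
  refine ⟨φ, ?_, hφ⟩
  haveI : IsSimpleGroup (alternatingGroup (Fin (n + 1))) :=
    alternatingGroup.isSimpleGroup (by rw [Nat.card_eq_fintype_card, Fintype.card_fin]; omega)
  rw [← MonoidHom.ker_eq_bot_iff]
  refine (Subgroup.Normal.eq_bot_or_eq_top inferInstance).resolve_right fun h => h01 ?_
  let i : Fin n := ⟨0, by omega⟩
  let j : Fin n := ⟨1, by omega⟩
  have h1 := hφ i j ⟨swap i.castSucc i.succ * swap j.castSucc j.succ, by
    rw [Perm.mem_alternatingGroup, map_mul, Perm.sign_swap (Fin.castSucc_lt_succ (i := i)).ne,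
      Perm.sign_swap (Fin.castSucc_lt_succ (i := j)).ne]; rfl⟩ rfl
  rw [MonoidHom.mem_ker.1 (h ▸ Subgroup.mem_top _)] at h1
  exact mul_inv_eq_one.1 h1.symm

end Cfsg.Agent.Lib.AltHom
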